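import Mathlib

/-! Structure of the inertial quotient `T / C_G(P)` for a Klein four-group `P` (pure group theory). -/

namespace Cfsg.Agent.Lib.Helper46

theorem ks_third {G : Type*} [Group G] (P : Subgroup G) (hV : IsKleinFour P) (u : G) (hu : u ∈ P) :
    ∃ v ∈ P, v ≠ 1 ∧ v ≠ u := by
  by_contra h
  push Not at h
  have hcyc : IsCyclic P := by
    refine ⟨⟨⟨u, hu⟩, fun x => ?_⟩⟩
    by_cases hx : (x : G) = 1
    · exact ⟨0, by ext; simp [hx]⟩
    · exact ⟨1, by ext; simp [h x x.2 hx]⟩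
  exact IsKleinFour.not_isCyclic hcyc

theorem klein_stab_structure {G : Type*} [Group G] [Finite G] (P : Subgroup G) (hV : IsKleinFour P)
    (C T : Subgroup G) (hC : C = Subgroup.centralizer (P : Set G)) (hCT : C ≤ T)
    (hTN : T ≤ Subgroup.normalizer (P : Set G)) (hodd : ¬ 2 ∣ C.relIndex T) :
    C.relIndex T = 1 ∨ (C.relIndex T = 3 ∧
      (∀ t ∈ T, ∀ u ∈ P, u ≠ 1 → t * u * t⁻¹ = u → t ∈ C) ∧
      (∀ u ∈ P, u ≠ 1 → ∀ u' ∈ P, u' ≠ 1 → ∃ t ∈ T, t * u * t⁻¹ = u')) := by
  classical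
  subst hC
  have hsq : ∀ x ∈ P, x * x = 1 := fun x hx => by
    have := IsKleinFour.mul_self (⟨x, hx⟩ : P)
    exact congrArg Subtype.val this
  have hfour : ∀ x ∈ P, ∀ y ∈ P, ∀ z ∈ P, x ≠ 1 → y ≠ 1 → x ≠ y → z ≠ 1 → z ≠ x → z ≠ y →
      z = x * y := by
    intro x hx y hy z hz hx1 hy1 hxy hz1 hzx hzy
    have := IsKleinFour.eq_mul_of_ne_all (G := P) (x := ⟨x, hx⟩) (y := ⟨y, hy⟩) (z := ⟨z, hz⟩)
      (by simpa [Subtype.ext_iff] using hx1) (by simpa [Subtype.ext_iff] using hy1)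
      (by simpa [Subtype.ext_iff] using hxy) (by simpa [Subtype.ext_iff] using hz1)
      (by simpa [Subtype.ext_iff] using hzx) (by simpa [Subtype.ext_iff] using hzy)
    exact congrArg Subtype.val this
  have hconj : ∀ t ∈ T, ∀ x ∈ P, t * x * t⁻¹ ∈ P := fun t ht x hx =>
    ((Subgroup.mem_normalizer_iff.mp (hTN ht)) x).mp hx
  have hcne1 : ∀ t x : G, x ≠ 1 → t * x * t⁻¹ ≠ 1 := by
    intro t x hx h
    apply hx
    have : x = t⁻¹ * (t * x * t⁻¹) * t := by group
    rw [this, h]; group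
  have hcent : ∀ t : G, ∀ u ∈ P, ∀ v ∈ P, u ≠ 1 → v ≠ 1 → u ≠ v → t * u * t⁻¹ = u →
      t * v * t⁻¹ = v → t ∈ Subgroup.centralizer (P : Set G) := by
    intro t u hu v hv hu1 hv1 huv htu htv
    rw [Subgroup.mem_centralizer_iff]
    intro x hx
    have hcu : u * t = t * u := by
      have := congrArg (· * t) htu
      simpa [mul_assoc] using this.symm
    have hcv : v * t = t * v := by
      have := congrArg (· * t) htv
      simpa [mul_assoc] using this.symm
    by_cases hx1 : x = 1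
    · simp [hx1]
    by_cases hxu : x = u
    · rw [hxu]; exact hcu
    by_cases hxv : x = v
    · rw [hxv]; exact hcv
    have := hfour u hu v hv x hx hu1 hv1 huv hx1 hxu hxv
    rw [this, mul_assoc, hcv, ← mul_assoc, hcu, mul_assoc]
  have hnorm : ((Subgroup.centralizer (P : Set G)).subgroupOf T).Normal := by
    constructor
    intro n hn g
    rw [Subgroup.mem_subgroupOf] at hn ⊢
    rw [Subgroup.mem_centralizer_iff] at hn ⊢
    intro x hx
    have hx' : (g : G)⁻¹ * x * (g : G) ∈ P := by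
      have := hconj (g : G)⁻¹ (T.inv_mem g.2) x hx
      simpa using this
    have h1 := hn _ hx'
    push_cast
    calc x * ((g : G) * n * (g : G)⁻¹) = g * ((g : G)⁻¹ * x * g * n) * (g : G)⁻¹ := by group
      _ = g * (n * ((g : G)⁻¹ * x * g)) * (g : G)⁻¹ := by rw [h1]
      _ = (g : G) * n * (g : G)⁻¹ * x := by group
  have hK1 : ∀ t ∈ T, t * t ∈ Subgroup.centralizer (P : Set G) →
      t ∈ Subgroup.centralizer (P : Set G) := by
    intro t ht ht2
    have hpow := Subgroup.pow_index_mem ((Subgroup.centralizer (P : Set G)).subgroupOf T)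
      (⟨t, ht⟩ : T)
    rw [Subgroup.mem_subgroupOf] at hpow
    have hidx : ((Subgroup.centralizer (P : Set G)).subgroupOf T).index =
        (Subgroup.centralizer (P : Set G)).relIndex T := rfl
    rw [hidx] at hpow
    obtain ⟨k, hk⟩ : ∃ k, (Subgroup.centralizer (P : Set G)).relIndex T = 2 * k + 1 := by
      have : Odd ((Subgroup.centralizer (P : Set G)).relIndex T) := by
        rw [← Nat.not_even_iff_odd, even_iff_two_dvd]; exact hodd
      obtain ⟨k, hk⟩ := this
      exact ⟨k, hk⟩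
    rw [hk] at hpow
    have h1 : (((⟨t, ht⟩ : T) ^ (2 * k + 1) : T) : G) = (t * t) ^ k * t := by
      simp [pow_succ, pow_mul]
    rw [h1] at hpow
    have h2 : (t * t) ^ k ∈ Subgroup.centralizer (P : Set G) := Subgroup.pow_mem _ ht2 k
    have := Subgroup.mul_mem _ (Subgroup.inv_mem _ h2) hpow
    simpa using this
  have hF1 : ∀ t ∈ T, ∀ u ∈ P, u ≠ 1 → t * u * t⁻¹ = u →
      t ∈ Subgroup.centralizer (P : Set G) := by
    intro t ht u hu hu1 htu
    obtain ⟨v, hv, hv1, hvu⟩ := ks_third P hV u hu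
    have hw : t * v * t⁻¹ ∈ P := hconj t ht v hv
    have hw1 : t * v * t⁻¹ ≠ 1 := hcne1 t v hv1
    have hwu : t * v * t⁻¹ ≠ u := by
      intro h
      apply hvu
      have h' : t * v * t⁻¹ = t * u * t⁻¹ := h.trans htu.symm
      exact mul_left_cancel (mul_right_cancel h')
    by_cases hwv : t * v * t⁻¹ = v
    · exact hcent t u hu v hv hu1 hv1 (Ne.symm hvu) htu hwv
    · have hwuv : t * v * t⁻¹ = u * v :=
        hfour u hu v hv _ hw hu1 hv1 (Ne.symm hvu) hw1 hwu hwv
      apply hK1 t ht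
      apply hcent (t * t) u hu v hv hu1 hv1 (Ne.symm hvu)
      · calc t * t * u * (t * t)⁻¹ = t * (t * u * t⁻¹) * t⁻¹ := by group
          _ = u := by rw [htu, htu]
      · calc t * t * v * (t * t)⁻¹ = t * (t * v * t⁻¹) * t⁻¹ := by group
          _ = t * (u * v) * t⁻¹ := by rw [hwuv]
          _ = (t * u * t⁻¹) * (t * v * t⁻¹) := by group
          _ = u * (u * v) := by rw [htu, hwuv]
          _ = v := by rw [← mul_assoc, hsq u hu, one_mul]
  by_cases hTC : T ≤ Subgroup.centralizer (P : Set G)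
  · left
    exact Subgroup.relIndex_eq_one.mpr hTC
  right
  obtain ⟨t0, ht0, ht0C⟩ := SetLike.not_le_iff_exists.mp hTC
  have hfree : ∀ t ∈ T, t ∉ Subgroup.centralizer (P : Set G) → ∀ u ∈ P, u ≠ 1 →
      t * u * t⁻¹ ≠ u :=
    fun t ht htC u hu hu1 h => htC (hF1 t ht u hu hu1 h)
  have ht02 : t0 * t0 ∉ Subgroup.centralizer (P : Set G) := fun h => ht0C (hK1 t0 ht0 h)
  have horb : ∀ u ∈ P, u ≠ 1 → ∀ x ∈ P, x ≠ 1 →
      x = u ∨ x = t0 * u * t0⁻¹ ∨ x = (t0 * t0) * u * (t0 * t0)⁻¹ := by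
    intro u hu hu1 x hx hx1
    have hvP : t0 * u * t0⁻¹ ∈ P := hconj t0 ht0 u hu
    have hv1 : t0 * u * t0⁻¹ ≠ 1 := hcne1 t0 u hu1
    have hvu : t0 * u * t0⁻¹ ≠ u := hfree t0 ht0 ht0C u hu hu1
    have hwP : (t0 * t0) * u * (t0 * t0)⁻¹ ∈ P := hconj (t0 * t0) (T.mul_mem ht0 ht0) u hu
    have hw1 : (t0 * t0) * u * (t0 * t0)⁻¹ ≠ 1 := hcne1 (t0 * t0) u hu1
    have hwu : (t0 * t0) * u * (t0 * t0)⁻¹ ≠ u :=
      hfree (t0 * t0) (T.mul_mem ht0 ht0) ht02 u hu hu1
    have hwv' : t0 * (t0 * u * t0⁻¹) * t0⁻¹ = (t0 * t0) * u * (t0 * t0)⁻¹ := by group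
    have hwv : (t0 * t0) * u * (t0 * t0)⁻¹ ≠ t0 * u * t0⁻¹ := by
      intro h
      exact hfree t0 ht0 ht0C _ hvP hv1 (hwv'.trans h)
    have hweq := hfour u hu _ hvP _ hwP hu1 hv1 (Ne.symm hvu) hw1 hwu hwv
    by_cases hxu : x = u
    · exact Or.inl hxu
    by_cases hxv : x = t0 * u * t0⁻¹
    · exact Or.inr (Or.inl hxv)
    right; right
    rw [hweq]
    exact hfour u hu _ hvP x hx hu1 hv1 (Ne.symm hvu) hx1 hxu hxv
  refine ⟨?_, fun t ht u hu hu1 h => hF1 t ht u hu hu1 h, ?_⟩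
  · obtain ⟨a, ha, ha1, -⟩ := ks_third P hV 1 P.one_mem
    have hle : (Subgroup.centralizer (P : Set G)).relIndex T ≤ 3 := by
      have hsurj : Function.Surjective (fun i : Fin 3 =>
          (QuotientGroup.mk ((⟨t0, ht0⟩ : T) ^ (i : ℕ)) :
            T ⧸ (Subgroup.centralizer (P : Set G)).subgroupOf T)) := by
        intro q
        induction q using QuotientGroup.induction_on with
        | H t =>
          have hx := hconj t t.2 a ha
          have hx1 : (t : G) * a * (t : G)⁻¹ ≠ 1 := hcne1 t a ha1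
          rcases horb a ha ha1 _ hx hx1 with h | h | h
          · refine ⟨0, ?_⟩
            simp only [Fin.val_zero, pow_zero]
            rw [QuotientGroup.eq, Subgroup.mem_subgroupOf]
            simpa using hF1 t t.2 a ha ha1 h
          · refine ⟨1, ?_⟩
            simp only [Fin.val_one, pow_one]
            rw [QuotientGroup.eq, Subgroup.mem_subgroupOf]
            have hmem : t0⁻¹ * (t : G) ∈ T := T.mul_mem (T.inv_mem ht0) t.2
            have : (t0⁻¹ * (t : G)) * a * (t0⁻¹ * (t : G))⁻¹ = a := by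
              calc (t0⁻¹ * (t : G)) * a * (t0⁻¹ * (t : G))⁻¹
                  = t0⁻¹ * ((t : G) * a * (t : G)⁻¹) * t0 := by group
                _ = t0⁻¹ * (t0 * a * t0⁻¹) * t0 := by rw [h]
                _ = a := by group
            simpa using hF1 _ hmem a ha ha1 this
          · refine ⟨2, ?_⟩
            simp only [Fin.val_two]
            rw [QuotientGroup.eq, Subgroup.mem_subgroupOf]
            have hmem : (t0 * t0)⁻¹ * (t : G) ∈ T :=
              T.mul_mem (T.inv_mem (T.mul_mem ht0 ht0)) t.2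
            have : ((t0 * t0)⁻¹ * (t : G)) * a * ((t0 * t0)⁻¹ * (t : G))⁻¹ = a := by
              calc ((t0 * t0)⁻¹ * (t : G)) * a * ((t0 * t0)⁻¹ * (t : G))⁻¹
                  = (t0 * t0)⁻¹ * ((t : G) * a * (t : G)⁻¹) * (t0 * t0) := by
                    simp only [mul_inv_rev, inv_inv, mul_assoc]
                _ = (t0 * t0)⁻¹ * ((t0 * t0) * a * (t0 * t0)⁻¹) * (t0 * t0) := by rw [h]
                _ = a := by simp [mul_assoc]
            have h3 := hF1 _ hmem a ha ha1 this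
            simpa [pow_two] using h3
      have := Nat.card_le_card_of_surjective _ hsurj
      simpa [Subgroup.relIndex, Subgroup.index] using this
    have hne1 : (Subgroup.centralizer (P : Set G)).relIndex T ≠ 1 :=
      fun h => hTC (Subgroup.relIndex_eq_one.mp h)
    omega
  · intro u hu hu1 u' hu' hu'1
    rcases horb u hu hu1 u' hu' hu'1 with h | h | h
    · exact ⟨1, T.one_mem, by simp [h]⟩
    · exact ⟨t0, ht0, h.symm⟩
    · exact ⟨t0 * t0, T.mul_mem ht0 ht0, h.symm⟩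

end Cfsg.Agent.Lib.Helper46
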