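import Mathlib

set_option autoImplicit false

namespace Cfsg.Agent.Lib.Helper46

section Norm

variable {R A : Type*} [Group R] [CommGroup A] [MulDistribMulAction R A] (S : Subgroup R)
  [Finite (R ⧸ S)]

/-- The norm of `v` over the left cosets of `S` (product of `r • v` over coset representatives). -/
noncomputable def cosetNorm (v : A) : A :=
  letI := Fintype.ofFinite (R ⧸ S)
  ∏ q : R ⧸ S, (q.out : R) • v

theorem smul_cosetNorm (v : A) (hv : ∀ s ∈ S, s • v = v) (r : R) :
    r • cosetNorm S v = cosetNorm S v := by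
  classical
  let _ := Fintype.ofFinite (R ⧸ S)
  unfold cosetNorm
  rw [Finset.smul_prod']
  have key : ∀ q : R ⧸ S, r • (q.out : R) • v = ((r • q : R ⧸ S).out : R) • v := by
    intro q
    have h1 : ((r • q : R ⧸ S).out : R)⁻¹ * (r * q.out) ∈ S := by
      rw [← QuotientGroup.eq, QuotientGroup.out_eq']
      conv_lhs => rw [← QuotientGroup.out_eq' q]
      rfl
    have h2 := hv _ h1
    rw [← mul_smul]
    have h3 : r * q.out = (r • q : R ⧸ S).out * (((r • q : R ⧸ S).out : R)⁻¹ * (r * q.out)) := by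
      group
    rw [h3, mul_smul, h2]
  simp_rw [key]
  exact Equiv.prod_comp (MulAction.toPerm r : Equiv.Perm (R ⧸ S)) (fun q => (q.out : R) • v)

theorem cosetNorm_eq (v : A) :
    ∃ c ∈ Subgroup.closure {a : A | ∃ r : R, a = (r • v) * v⁻¹},
      cosetNorm S v = v ^ Nat.card (R ⧸ S) * c := by
  classical
  let _ := Fintype.ofFinite (R ⧸ S)
  refine ⟨∏ q : R ⧸ S, ((q.out : R) • v) * v⁻¹,
    Subgroup.prod_mem _ (fun q _ => Subgroup.subset_closure ⟨q.out, rfl⟩), ?_⟩
  unfold cosetNorm
  rw [Nat.card_eq_fintype_card, ← Finset.card_univ, ← Finset.prod_const, ← Finset.prod_mul_distrib]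
  refine Finset.prod_congr rfl (fun q _ => ?_)
  simp

end Norm

end Cfsg.Agent.Lib.Helper46
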